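import Cfsg.Agent.H168.TwCover
import Cfsg.Agent.H168.ExcE6
import Cfsg.Agent.H168.ExcE7
import Cfsg.Agent.H168.ExcE8
import Cfsg.Agent.H168.ExcF4
import Cfsg.Agent.H168.ExcG2

/-!
# Elements of order `N` for `N` dividing the value of a cyclotomic polynomial (helper629)

The generalisation of `H493.PGTorus.exists_order`, `H168.ExcAdj.rel_of_eig`, `H168.TwAdj.rel_of_fr` from primes to
arbitrary numbers `N`.

* `exists_orderOf_of_eig` : `D.group F` has an element of order `N`, if `N ∣ f(|F|)` is coprime to `d`, `(w, f)` with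
  `EigOK`; `exists_orderOf_mul_of_eig` : of order `N * N'`, two polynomials with the same `w`, `N`, `N'` coprime;
* `exists_orderOf_of_fr`, `exists_orderOf_mul_of_fr` : the twisted groups;
* `te6_orderOf`, `td4_orderOf` : `²E₆(q)`, `³D₄(q)` with the tables of `H168.TwCover`.
-/

set_option autoImplicit false
set_option linter.unusedSectionVars false

namespace Cfsg.Agent.H629.TorOrd

open CoxeterSystem Subgroup Cfsg Cfsg.Lie Cfsg.Lie.ChevalleyDatum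
open Cfsg.Agent.ChevalleyStructure Cfsg.Agent.ChevalleyStructure.Elts Cfsg.Agent.ChevalleyStructure.CoxeterGeom
  Cfsg.Agent.ChevalleyStructure.CoxeterGeomTypes Cfsg.Agent.ChevalleyStructure.NPerm
open Cfsg.Agent.Tits.Roots Cfsg.Agent.Tits.Core Cfsg.Agent.Nodes Cfsg.Agent.Nodes.Reps Cfsg.Agent.Nodes.BNOf
  Cfsg.Agent.Nodes.RGDChev Cfsg.Agent.Nodes.Bruhat
open Cfsg.Agent.KFacts.RgdField Cfsg.Agent.KFacts.RgdChevCoord Cfsg.Agent.BpExc.TorCent Cfsg.Agent.BpExc.TorChev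
open Cfsg.Agent.BpExc.Tow Cfsg.Agent.BpExc.TowChev Cfsg.Agent.BpExc.FamExt Cfsg.Agent.BpExc.FamUntw
  Cfsg.Agent.BpExc.FamInst Cfsg.Agent.BpExc.LangFr Cfsg.Agent.BpExc.FamField Cfsg.Agent.BpExc.Fr Cfsg.Agent.LangThm
  Cfsg.Agent.BpExc
open Cfsg.Agent.H378.TorDual Cfsg.Agent.H378.TorChar Cfsg.Agent.H378.TorFin
open Cfsg.Agent.H129.TorusChar Cfsg.Agent.H129.TorusTw Cfsg.Agent.H129.TorusMain Cfsg.Agent.H129.WData
open Cfsg.Agent.H493 Cfsg.Agent.H493.PGTorus Cfsg.Agent.H493.PGCyc Cfsg.Agent.H168.ExcAdj Cfsg.Agent.H168.TwAdj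

universe u

section

variable {l : ℕ} {w : Module.End ℤ (Fin l → ℤ)} {Th : Fin l → Fin l → ℤ}

/-- **An element of order `N` in the cokernel.** -/
theorem exists_order_nat (hw : ∀ (x : Fin l → ℤ) (m : Fin l), w x m = ∑ j, x j * Th j m) {n : ℕ} (hn : 0 < n)
    (hwn : w ^ n = 1) {f : ℕ} {c : Fin (f + 1) → ℤ} {V : Fin (f + 1) → Fin l → ℤ} {U : Fin l → ℤ}
    (h : EigOK Th c V U) {q : ℤ} (hq : 2 ≤ q) {r : ℕ} (hd : (r : ℤ) ∣ pv c q) :
    ∃ y : Multiplicative ((Fin l → ℤ) ⧸ LinearMap.range (w - q • (1 : Module.End ℤ (Fin l → ℤ)))),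
      orderOf y = r := by
  obtain ⟨N, hN⟩ := hd
  have h1 := eig_apply hw h q
  have h2 := eig_unit h q
  set v := vval V q
  let u : Fin l → ℤ := -N • V (Fin.last f)
  have hu : (w - q • (1 : Module.End ℤ (Fin l → ℤ))) v = (r : ℤ) • u := by
    rw [h1, hN]
    show _ = (r : ℤ) • (-N • V (Fin.last f))
    rw [smul_smul]
    congr 1
    ring
  refine ⟨Multiplicative.ofAdd (Submodule.Quotient.mk u), Nat.dvd_antisymm ?_ ?_⟩
  · refine orderOf_dvd_of_pow_eq_one ?_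
    rw [← ofAdd_nsmul]
    apply Multiplicative.toAdd.injective
    rw [toAdd_ofAdd, toAdd_one, ← Submodule.Quotient.mk_smul, Submodule.Quotient.mk_eq_zero]
    refine ⟨v, ?_⟩
    rw [hu, natCast_zsmul]
  · set k := orderOf (Multiplicative.ofAdd (Submodule.Quotient.mk u :
      (Fin l → ℤ) ⧸ LinearMap.range (w - q • (1 : Module.End ℤ (Fin l → ℤ))))) with hk
    have h0 := pow_orderOf_eq_one (Multiplicative.ofAdd (Submodule.Quotient.mk u :
      (Fin l → ℤ) ⧸ LinearMap.range (w - q • (1 : Module.End ℤ (Fin l → ℤ)))))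
    rw [← hk, ← ofAdd_nsmul] at h0
    have h3 : (k • Submodule.Quotient.mk u : (Fin l → ℤ) ⧸ LinearMap.range (w - q • (1 : Module.End ℤ (Fin l → ℤ)))) = 0 :=
      Multiplicative.ofAdd.injective h0
    rw [← Submodule.Quotient.mk_smul, Submodule.Quotient.mk_eq_zero] at h3
    obtain ⟨v', hv'⟩ := h3
    have h4 : (w - q • (1 : Module.End ℤ (Fin l → ℤ))) ((k : ℤ) • v - (r : ℤ) • v') = 0 := by
      rw [map_sub, map_smul, map_smul, hu, hv', natCast_zsmul, natCast_zsmul, smul_comm, natCast_zsmul, sub_self]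
    have h5 := sub_injective hn hwn hq h4
    have h6 : (k : ℤ) • v = (r : ℤ) • v' := sub_eq_zero.mp h5
    have h7 : (r : ℤ) ∣ (k : ℤ) := by
      have h8 : (k : ℤ) = ∑ m, U m * ((k : ℤ) • v) m := by
        have h9 : ∑ m, U m * ((k : ℤ) • v) m = (k : ℤ) * ∑ m, U m * v m := by
          rw [Finset.mul_sum]
          exact Finset.sum_congr rfl fun m _ => by rw [Pi.smul_apply, smul_eq_mul]; ring
        rw [h9, h2, mul_one]
      rw [h8, h6]
      refine Finset.dvd_sum fun m _ => ?_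
      show (r : ℤ) ∣ U m * ((r : ℤ) * v' m)
      exact ⟨U m * v' m, by ring⟩
    exact Int.natCast_dvd_natCast.mp h7

end

section Untw

variable {D : ChevalleyDatum} {l : ℕ} {M : CoxeterMatrix (Fin l)} (hp : IsType D l M) {W : Type*} [Group W] [Finite W]
  (cs : CoxeterSystem M W)

/-- **Two commuting elements of `D.group F` of orders `N`, `N'`.** -/
theorem exists_pair_of_eig {d : ℕ} {B : Fin l → Fin l → ℤ} (hB : BpExc.FamExt.InvC D l d B) (hd : d ≠ 0) {F : Type u} [Field F]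
    [Finite F] {w : W} {Th : Fin l → Fin l → ℤ} (hw : ∀ j, rep cs hp.isCartan w (sr j) = Th j)
    {f : ℕ} {c : Fin (f + 1) → ℤ} {V : Fin (f + 1) → Fin l → ℤ} {U : Fin l → ℤ} (h : EigOK Th c V U)
    {f' : ℕ} {c' : Fin (f' + 1) → ℤ} {V' : Fin (f' + 1) → Fin l → ℤ} {U' : Fin l → ℤ} (h' : EigOK Th c' V' U')
    {N N' : ℕ} (hNd : Nat.Coprime N d) (hNd' : Nat.Coprime N' d)
    (h1 : (N : ℤ) ∣ pv c (Nat.card F)) (h2 : (N' : ℤ) ∣ pv c' (Nat.card F)) :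
    ∃ x y : ↥(D.group F), Commute x y ∧ orderOf x = N ∧ orderOf y = N' := by
  obtain ⟨φ, hφ⟩ := exists_hom hp cs hB hd (F := F) w
  have hq : (2 : ℤ) ≤ (Nat.card F : ℤ) := by
    exact_mod_cast Finite.one_lt_card
  have hwn : (rep cs hp.isCartan w) ^ Nat.card W = 1 := by
    rw [← map_pow, pow_card_eq_one', map_one]
  obtain ⟨x, hx⟩ := exists_order_nat (rep_apply_eq hp cs hw) Nat.card_pos hwn h hq h1
  obtain ⟨y, hy⟩ := exists_order_nat (rep_apply_eq hp cs hw) Nat.card_pos hwn h' hq h2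
  have key : ∀ {t : ℕ} (_ : Nat.Coprime t d) {z : Multiplicative ((Fin l → ℤ) ⧸ LinearMap.range
      (rep cs hp.isCartan w - ((Nat.card F : ℕ) : ℤ) • (1 : Module.End ℤ (Fin l → ℤ))))} (_ : orderOf z = t),
      orderOf (φ z) = t := by
    intro t htd z hz
    refine Nat.dvd_antisymm ?_ ?_
    · refine orderOf_dvd_of_pow_eq_one ?_
      rw [← map_pow, ← hz, pow_orderOf_eq_one, map_one]
    · have h3 := pow_orderOf_eq_one (φ z)
      rw [← map_pow] at h3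
      have h4 := hφ _ h3
      rw [← pow_mul] at h4
      have h5 := orderOf_dvd_of_pow_eq_one h4
      rw [hz] at h5
      exact htd.dvd_of_dvd_mul_right h5
  refine ⟨φ x, φ y, ?_, key hNd hx, key hNd' hy⟩
  show φ x * φ y = φ y * φ x
  rw [← map_mul, ← map_mul, mul_comm]

/-- **An element of `D.group F` of order `N`.** -/
theorem exists_orderOf_of_eig {d : ℕ} {B : Fin l → Fin l → ℤ} (hB : BpExc.FamExt.InvC D l d B) (hd : d ≠ 0) {F : Type u} [Field F]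
    [Finite F] {w : W} {Th : Fin l → Fin l → ℤ} (hw : ∀ j, rep cs hp.isCartan w (sr j) = Th j)
    {f : ℕ} {c : Fin (f + 1) → ℤ} {V : Fin (f + 1) → Fin l → ℤ} {U : Fin l → ℤ} (h : EigOK Th c V U)
    {N : ℕ} (hNd : Nat.Coprime N d) (h1 : (N : ℤ) ∣ pv c (Nat.card F)) :
    ∃ x : ↥(D.group F), orderOf x = N := by
  obtain ⟨x, -, -, hx, -⟩ := exists_pair_of_eig hp cs hB hd hw h h hNd hNd h1 h1
  exact ⟨x, hx⟩

/-- **An element of `D.group F` of order `N * N'`.** -/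
theorem exists_orderOf_mul_of_eig {d : ℕ} {B : Fin l → Fin l → ℤ} (hB : BpExc.FamExt.InvC D l d B) (hd : d ≠ 0) {F : Type u}
    [Field F] [Finite F] {w : W} {Th : Fin l → Fin l → ℤ} (hw : ∀ j, rep cs hp.isCartan w (sr j) = Th j)
    {f : ℕ} {c : Fin (f + 1) → ℤ} {V : Fin (f + 1) → Fin l → ℤ} {U : Fin l → ℤ} (h : EigOK Th c V U)
    {f' : ℕ} {c' : Fin (f' + 1) → ℤ} {V' : Fin (f' + 1) → Fin l → ℤ} {U' : Fin l → ℤ} (h' : EigOK Th c' V' U')
    {N N' : ℕ} (hNN : Nat.Coprime N N') (hNd : Nat.Coprime N d) (hNd' : Nat.Coprime N' d)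
    (h1 : (N : ℤ) ∣ pv c (Nat.card F)) (h2 : (N' : ℤ) ∣ pv c' (Nat.card F)) :
    ∃ x : ↥(D.group F), orderOf x = N * N' := by
  obtain ⟨x, y, hxy, hx, hy⟩ := exists_pair_of_eig hp cs hB hd hw h h' hNd hNd' h1 h2
  exact ⟨x * y, by rw [hxy.orderOf_mul_eq_mul_orderOf_of_coprime (by rw [hx, hy]; exact hNN), hx, hy]⟩

end Untw

section Torus

variable {D : ChevalleyDatum} {l : ℕ} {M : CoxeterMatrix (Fin l)} (hp : IsType D l M) {k : Type u} [Field k]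
  {θ : (Fin l → ℤ) →+ (Fin l → ℤ)} {Th : Fin l → Fin l → ℤ} (hθ : Lin θ Th)

include hθ in
/-- **An element of order `r` of the twisted torus.** -/
theorem exists_elt_nat [IsAlgClosed k] {d : ℕ} {B : Fin l → Fin l → ℤ} (hB : H129.TorusChar.InvC D l d B) (hd : d ≠ 0) {f : ℕ}
    {c : Fin (f + 1) → ℤ} {L : Fin (f + 1) → Fin l → ℤ} {P : Fin l → ℤ} (h : EigOK (tr Th) c L P) {q r : ℕ}
    (hr : r ≠ 0) (hr0 : (r : k) ≠ 0) (hdv : (r : ℤ) ∣ pv c (q : ℤ)) :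
    ∃ t ∈ TT D k, (∀ x, cX hp t (θ x) = cX hp t x ^ q) ∧ orderOf t = r := by
  have hne : NeZero (r : k) := ⟨hr0⟩
  have hne' : NeZero r := ⟨hr⟩
  obtain ⟨u, hu⟩ := HasEnoughRootsOfUnity.exists_primitiveRoot k r
  have hu0 : u ≠ 0 := hu.ne_zero hr
  have hφ : IsMC (fun x : Fin l → ℤ => u ^ fnl L q x) := ⟨by
    show u ^ fnl L q 0 = 1
    rw [fnl_zero, zpow_zero], fun x y => by
    show u ^ fnl L q (x + y) = u ^ fnl L q x * u ^ fnl L q y
    rw [fnl_add, zpow_add₀ hu0]⟩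
  obtain ⟨t, ht, h3⟩ := exists_cX hp hB hd hφ (fun i => IsAlgClosed.exists_pow_nat_eq _ (Nat.pos_of_ne_zero hd))
  refine ⟨t, ht, fun x => ?_, Nat.dvd_antisymm ?_ ?_⟩
  · rw [h3, h3]
    show u ^ fnl L q (θ x) = (u ^ fnl L q x) ^ q
    obtain ⟨m, hm⟩ := hdv.trans (dvd_fnl hθ h (q : ℤ) x)
    have e : fnl L q (θ x) = fnl L q x * q + r * m := by rw [← hm]; ring
    rw [e, zpow_add₀ hu0, zpow_mul, zpow_natCast, zpow_mul, zpow_natCast, hu.pow_eq_one, one_zpow, mul_one]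
  · refine orderOf_dvd_of_pow_eq_one ?_
    refine cX_inj hp (pow_mem ht r) (one_mem _) fun i => ?_
    rw [cX_pow hp ht, cX_one, h3]
    show (u ^ fnl L q (sr i)) ^ r = 1
    rw [← zpow_natCast, ← zpow_mul, mul_comm, zpow_mul, zpow_natCast, hu.pow_eq_one, one_zpow]
  · have h4 := h3 P
    have h5 : u ^ fnl L q P = cX hp t P := h4.symm
    rw [fnl_P h, zpow_one] at h5
    refine hu.dvd_of_pow_eq_one _ ?_
    rw [h5, ← cX_pow hp ht, pow_orderOf_eq_one, cX_one]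

end Torus

section Main

variable {D : ChevalleyDatum} {l : ℕ} {M : CoxeterMatrix (Fin l)} (hp : IsType D l M) {k : Type u} [Field k]
  {W : Type*} [Group W] (cs : CoxeterSystem M W) {p e : ℕ} [Fact p.Prime] [CharP k p] {σ : MulAut ↥(D.group k)}
  {g : (Fin l → ℤ) ≃+ (Fin l → ℤ)}

/-- **Two commuting elements fixed by `σ`.** -/
theorem exists_pair_nat [IsAlgClosed k] [Finite W] (hk : LocFin k) (he : 0 < e) (hσ : IsFrob p e σ)
    (F : Fr cs hp.isCartan (TT D k) (XX D l k) σ g) {d : ℕ} {B : Fin l → Fin l → ℤ} (hB : H129.TorusChar.InvC D l d B) (hd : d ≠ 0)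
    {w : W} {Th : Fin l → Fin l → ℤ} (hθ : Lin (theta hp cs w g) Th)
    {f : ℕ} {c : Fin (f + 1) → ℤ} {L : Fin (f + 1) → Fin l → ℤ} {P : Fin l → ℤ} (h : EigOK (tr Th) c L P)
    {f' : ℕ} {c' : Fin (f' + 1) → ℤ} {L' : Fin (f' + 1) → Fin l → ℤ} {P' : Fin l → ℤ} (h' : EigOK (tr Th) c' L' P')
    {r s : ℕ} (hr : r ≠ 0) (hs : s ≠ 0) (hrp : ¬ p ∣ r) (hsp : ¬ p ∣ s)
    (h1 : (r : ℤ) ∣ pv c ((p ^ e : ℕ) : ℤ)) (h2 : (s : ℤ) ∣ pv c' ((p ^ e : ℕ) : ℤ)) :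
    ∃ x y : ↥(D.group k), σ x = x ∧ σ y = y ∧ x * y = y * x ∧ orderOf x = r ∧ orderOf y = s := by
  have hne : ∀ {a : ℕ}, ¬ p ∣ a → (a : k) ≠ 0 := by
    intro a hap h0
    rw [CharP.cast_eq_zero_iff k p] at h0
    exact hap h0
  obtain ⟨n, hn⟩ := exists_rp cs (H129.TorusUntw.nsys_of_locFin hp cs hk p) w
  obtain ⟨z, hz⟩ := lang_all hp cs he hσ F 1 n
  rw [map_one, one_mul] at hz
  obtain ⟨a, ha, ha2, ha3⟩ := exists_elt_nat hp hθ hB hd h (q := p ^ e) hr (hne hrp) h1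
  obtain ⟨b, hb, hb2, hb3⟩ := exists_elt_nat hp hθ hB hd h' (q := p ^ e) hs (hne hsp) h2
  have ha4 := (tau_iff hp cs hk hσ F hn ha).2 ha2
  have hb4 := (tau_iff hp cs hk hσ F hn hb).2 hb2
  refine ⟨z * a * z⁻¹, z * b * z⁻¹, H129.TorusUntw.conj_fixed hz ha4 (Subgroup.mem_zpowers a),
    H129.TorusUntw.conj_fixed hz hb4 (Subgroup.mem_zpowers b), ?_, ?_, ?_⟩
  · calc z * a * z⁻¹ * (z * b * z⁻¹) = z * (a * b) * z⁻¹ := by group
      _ = z * (b * a) * z⁻¹ := by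
        rw [show a * b = b * a from cX_inj hp (mul_mem ha hb) (mul_mem hb ha) fun i => by
          rw [cX_mul hp ha hb, cX_mul hp hb ha, mul_comm]]
      _ = _ := by group
  · have h3 : orderOf (MulAut.conj z a) = orderOf a :=
      orderOf_injective (MulAut.conj z).toMonoidHom (MulAut.conj z).injective a
    rw [← ha3, ← h3]
    rfl
  · have h3 : orderOf (MulAut.conj z b) = orderOf b :=
      orderOf_injective (MulAut.conj z).toMonoidHom (MulAut.conj z).injective b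
    rw [← hb3, ← h3]
    rfl

/-- **Two commuting elements of the twisted group of orders `r`, `s`.** -/
theorem exists_pair_of_fr [IsAlgClosed k] [Finite W] (hk : LocFin k) (he : 0 < e) (hσ : IsFrob p e σ)
    (F : Fr cs hp.isCartan (TT D k) (XX D l k) σ g) {d : ℕ} {B : Fin l → Fin l → ℤ} (hB : H129.TorusChar.InvC D l d B) (hd : d ≠ 0)
    {w : W} {Th : Fin l → Fin l → ℤ} (hθ : Lin (theta hp cs w g) Th)
    {f : ℕ} {c : Fin (f + 1) → ℤ} {L : Fin (f + 1) → Fin l → ℤ} {P : Fin l → ℤ} (h : EigOK (tr Th) c L P)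
    {f' : ℕ} {c' : Fin (f' + 1) → ℤ} {L' : Fin (f' + 1) → Fin l → ℤ} {P' : Fin l → ℤ} (h' : EigOK (tr Th) c' L' P')
    {G0 : Type*} [Group G0] {e0 : G0 →* ↥(D.group k)} (he0 : Function.Injective e0) {m : ℕ} (hm0 : m ≠ 0)
    (hm : ∀ y, σ y = y → y ^ m ∈ e0.range)
    {r s : ℕ} (hr : r ≠ 0) (hs : s ≠ 0) (hrp : ¬ p ∣ r) (hsp : ¬ p ∣ s)
    (hrm : Nat.Coprime r m) (hsm : Nat.Coprime s m)
    (h1 : (r : ℤ) ∣ pv c ((p ^ e : ℕ) : ℤ)) (h2 : (s : ℤ) ∣ pv c' ((p ^ e : ℕ) : ℤ)) :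
    ∃ x y : G0, Commute x y ∧ orderOf x = r ∧ orderOf y = s := by
  obtain ⟨x, y, hx, hy, hxy, hxr, hys⟩ := exists_pair_nat hp cs hk he hσ F hB hd hθ h h' hr hs hrp hsp h1 h2
  obtain ⟨x0, hx0⟩ := hm x hx
  obtain ⟨y0, hy0⟩ := hm y hy
  refine ⟨x0, y0, ?_, ?_, ?_⟩
  · show x0 * y0 = y0 * x0
    apply he0
    rw [map_mul, map_mul, hx0, hy0]
    have h3 : Commute x y := hxy
    exact h3.pow_pow m m
  · have h3 : orderOf (e0 x0) = orderOf x0 := orderOf_injective e0 he0 x0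
    rw [← h3, hx0, orderOf_pow' x hm0, hxr, hrm.gcd_eq_one, Nat.div_one]
  · have h3 : orderOf (e0 y0) = orderOf y0 := orderOf_injective e0 he0 y0
    rw [← h3, hy0, orderOf_pow' y hm0, hys, hsm.gcd_eq_one, Nat.div_one]

end Main

/-! ### the twisted groups -/

theorem not_dvd_of_cop {p e q r : ℕ} (hp : p.Prime) (he : 0 < e) (hq : q = p ^ e) (hr : Nat.Coprime r q) : ¬ p ∣ r := by
  intro h
  have h1 : p ∣ q := by rw [hq]; exact dvd_pow_self _ he.ne'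
  exact hp.one_lt.ne' (Nat.dvd_one.1 (hr ▸ Nat.dvd_gcd h h1))

/-- **`²E₆(q)`: two commuting elements of orders `r`, `s`.** -/
theorem te6_pair {F : Type u} [Field F] [Fintype F] {q : ℕ} (hq : IsPrimePow q) (hF : Fintype.card F = q ^ 2)
    {Ch : List (Fin 6 × Mat 6)} (hL : ChainOK PGE6.Am Ch) {Th : Mat 6}
    (hT : ∀ j, hd Ch (H168.TwCover.pi6 j) = Th j)
    {f : ℕ} {c : Fin (f + 1) → ℤ} {L : Fin (f + 1) → Fin 6 → ℤ} {P : Fin 6 → ℤ} (h : EigOK (tr Th) c L P)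
    {f' : ℕ} {c' : Fin (f' + 1) → ℤ} {L' : Fin (f' + 1) → Fin 6 → ℤ} {P' : Fin 6 → ℤ} (h' : EigOK (tr Th) c' L' P')
    {r s : ℕ} (hr : r ≠ 0) (hs : s ≠ 0) (hrq : Nat.Coprime r q) (hsq : Nat.Coprime s q)
    (hr3 : Nat.Coprime r 3) (hs3 : Nat.Coprime s 3)
    (h1 : (r : ℤ) ∣ pv c (q : ℤ)) (h2 : (s : ℤ) ∣ pv c' (q : ℤ)) :
    ∃ x y : ↥(twistedE6 F q), Commute x y ∧ orderOf x = r ∧ orderOf y = s := by
  obtain ⟨p, e, hpF, hpk, he, hqe, hk⟩ := H168.TwCover.exists_pe hq hF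
  have := PGE6.finW
  exact exists_pair_of_fr RGDTwE6.hp CoxeterMatrix.E₆.toCoxeterSystem hk he H168.TwE6Fr.isFrob_tau
    (H168.TwE6Fr.fr_tau CoxeterMatrix.E₆.toCoxeterSystem) H129.TorusChar.invC_E6 (by norm_num)
    (H168.TwCover.lin_six CoxeterMatrix.E₆.toCoxeterSystem hL hT) h h'
    (H168.TwE6Fr.embT_injective (algebraMap F (AlgebraicClosure F)) (q := q)) (m := 3) (by norm_num)
    (fun y hy => H168.TwE6Fr.tau_pow_range _ hqe hq hF hy) hr hs (not_dvd_of_cop hpF.out he hqe hrq)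
    (not_dvd_of_cop hpF.out he hqe hsq) hr3 hs3 (by rw [← hqe]; exact h1) (by rw [← hqe]; exact h2)

/-- **`³D₄(q)`: two commuting elements of orders `r`, `s`.** -/
theorem td4_pair {F : Type u} [Field F] [Fintype F] {q : ℕ} (hq : IsPrimePow q) (hF : Fintype.card F = q ^ 3)
    {Ch : List (Fin 4 × Mat 4)} (hL : ChainOK H129.DataD4C.Am Ch) {Th : Mat 4}
    (hT : ∀ j, hd Ch (H168.TwCover.pi4 j) = Th j)
    {f : ℕ} {c : Fin (f + 1) → ℤ} {L : Fin (f + 1) → Fin 4 → ℤ} {P : Fin 4 → ℤ} (h : EigOK (tr Th) c L P)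
    {f' : ℕ} {c' : Fin (f' + 1) → ℤ} {L' : Fin (f' + 1) → Fin 4 → ℤ} {P' : Fin 4 → ℤ} (h' : EigOK (tr Th) c' L' P')
    {r s : ℕ} (hr : r ≠ 0) (hs : s ≠ 0) (hrq : Nat.Coprime r q) (hsq : Nat.Coprime s q)
    (h1 : (r : ℤ) ∣ pv c (q : ℤ)) (h2 : (s : ℤ) ∣ pv c' (q : ℤ)) :
    ∃ x y : ↥(twistedD4 F q), Commute x y ∧ orderOf x = r ∧ orderOf y = s := by
  obtain ⟨p, e, hpF, hpk, he, hqe, hk⟩ := H168.TwCover.exists_pe hq hF
  have := H129.TwD4Cyc.finite_W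
  exact exists_pair_of_fr Cfsg.Agent.Nodes.RGDTwD4.hp coxeterD4.toCoxeterSystem hk he H129.TriD4.isFrob_tau
    (H129.TriD4.fr_tau coxeterD4.toCoxeterSystem) H129.TorusChar.invC_D4 (by norm_num)
    (H129.TwD4Cyc.lin_tri coxeterD4.toCoxeterSystem H129.DataD4C.hA hL hT) h h'
    (H129.TriD4.embT_injective (algebraMap F (AlgebraicClosure F)) hq hF) (m := 1) one_ne_zero
    (fun y hy => by rw [pow_one]; exact H129.TriD4.tau_range _ hqe hq hF hy) hr hs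
    (not_dvd_of_cop hpF.out he hqe hrq) (not_dvd_of_cop hpF.out he hqe hsq) (Nat.coprime_one_right _)
    (Nat.coprime_one_right _) (by rw [← hqe]; exact h1) (by rw [← hqe]; exact h2)

end Cfsg.Agent.H629.TorOrd
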